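import Cfsg.Agent.H1.FP0
import Cfsg.Agent.S0713

/-! S4181 / S3580: chunks `Q0`, `QT`, `PR`. -/

set_option autoImplicit false

namespace H20.FP
open MulAction H1.FP Subgroup
open scoped Pointwise
universe u

theorem q0 : Q0.{u} := fun K _ _ Θ _ _ ht h2 => by
  classical
  have : Nontrivial Θ := Finite.one_lt_card_iff_nontrivial.1 h2
  obtain ⟨u0, u1, ne⟩ := exists_pair_ne Θ
  obtain ⟨M, hM, le⟩ := (eq_top_or_exists_le_coatom (stabilizer K u0)).resolve_left fun e => by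
    obtain ⟨g, rfl⟩ := ht.exists_smul_eq u0 u1
    exact ne (e.ge (mem_top g) : g • u0 = u0).symm
  choose s hs using ht.exists_smul_eq u0
  let π : Θ → K ⧸ M := fun u => s u
  have eq : ∀ (g : K) u, π (g • u) = g • π u := fun g u => by
    show ((s (g • u) : K) : K ⧸ M) = ((g * s u : K) : K ⧸ M)
    refine QuotientGroup.eq.2 (le ?_)
    show ((s (g • u))⁻¹ * (g * s u)) • u0 = u0
    rw [mul_smul, mul_smul, hs, inv_smul_eq_iff, hs]
  have nt : Nontrivial (K ⧸ M) := QuotientGroup.nontrivial_iff.2 hM.1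
  have fb : ∀ a, (π ⁻¹' {a}).ncard = (π ⁻¹' {π u0}).ncard := fun a => by
    obtain ⟨g, rfl⟩ := exists_smul_eq K (π u0) a
    rw [← Set.ncard_smul_set g (π ⁻¹' {π u0})]
    congr 1
    ext v
    rw [Set.mem_smul_set_iff_inv_smul_mem, Set.mem_preimage, Set.mem_preimage, eq, Set.mem_singleton_iff,
      Set.mem_singleton_iff, inv_smul_eq_iff]
  refine ⟨K ⧸ M, inferInstance, inferInstance, π, (π ⁻¹' {π u0}).ncard,
    (isCoatom_stabilizer_iff_preprimitive K ((1 : K) : K ⧸ M)).1 (by rwa [stabilizer_quotient]),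
    Finite.one_lt_card_iff_nontrivial.2 nt, eq, (Set.ncard_pos (Set.toFinite _)).2 ⟨u0, rfl⟩, fun S => ?_, fun b => ?_⟩
  · induction S, S.toFinite using Set.Finite.induction_on with
    | empty => simp
    | @insert a S ha _ ih =>
      rw [Set.ncard_insert_of_notMem ha, Set.insert_eq, Set.preimage_union, Set.ncard_union_eq
        ((Set.disjoint_singleton_left.2 ha).preimage π), ih, fb]
      ring
  · obtain ⟨v, hv⟩ := Set.ncard_eq_one.1 b
    refine (isCoatom_stabilizer_iff_preprimitive K u0).1 (le_antisymm le (fun m hm => ?_) ▸ hM)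
    have a : m • u0 ∈ π ⁻¹' {π u0} := by
      have e : π u0 = ((1 : K) : K ⧸ M) := QuotientGroup.eq.2 (by simpa using le (hs u0))
      rw [Set.mem_preimage, eq, e]
      exact (stabilizer_quotient M).ge hm
    have c : u0 ∈ π ⁻¹' {π u0} := rfl
    rw [hv] at a c
    exact a.trans c.symm

theorem qt (q0 : Q0.{u}) : QT.{u} := by
  intro p K _ _ x Θ _ _ s ht h2
  obtain ⟨A, _, _, π, β, pr, a2, eq, b1, fb, b⟩ := q0 K Θ ht h2
  have n : Nat.card Θ = β * Nat.card A := by simpa using fb Set.univ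
  have l : fixedBy Θ x ⊆ π ⁻¹' fixedBy A x := fun v hv => (eq x v).symm.trans (congrArg π hv)
  have t := fb (fixedBy A x)
  have f := Set.ncard_le_ncard l
  rw [t, ← fx_eq, ← fx_eq] at f
  have e1 := card_eq (Δ := Θ) s.hp s.ord
  have e2 := card_eq (Δ := A) s.hp s.ord
  rw [n, e2, mul_add, mul_left_comm] at e1
  obtain ⟨ε, h⟩ := Nat.exists_eq_add_of_le (Nat.le_of_mul_le_mul_left (by omega : p * (β * lx p x A) ≤ p * lx p x Θ) s.hp.pos)
  rw [h, mul_add] at e1
  have e3 : fx x Θ + p * ε = β * fx x A := by omega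
  refine ⟨A, inferInstance, inferInstance, π, β, ε, pr, a2, eq, b1, n, e3, h, fun z v hv => ?_, b⟩
  rw [z, mul_zero, add_zero, fx_eq, fx_eq, ← t] at e3
  exact (Set.eq_of_subset_of_ncard_le l e3.ge).ge hv

theorem pr (wt : WT.{u}) (ce : CE.{u}) : PR.{u} := by
  intro p K _ _ x Δ _ _ q s p3 pr hq f qp nd l2 lq
  classical
  have := Fact.mk hq
  have := Fintype.ofFinite Δ
  have nm : 5 ≤ Fintype.card Δ ∧ q + 3 ≤ Fintype.card Δ ∧ 1 < Fintype.card Δ ∧ p + p ≤ Fintype.card Δ ∧ p ≠ 2 := by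
    have n := card_eq (Δ := Δ) s.hp s.ord
    have n2 : p * 2 ≤ p * lx p x Δ := Nat.mul_le_mul_left p l2
    rw [Nat.card_eq_fintype_card, f] at n
    omega
  let N := normalizer ((zpowers x : Subgroup K) : Set K)
  obtain ⟨⟨a, ha⟩⟩ : Nonempty (fixedBy Δ x) := (Nat.card_pos_iff.1 (f.symm ▸ hq.pos : 0 < fx x Δ)).1
  have o : orbit N a = fixedBy Δ x := Set.ext fun b => ⟨by
    rintro ⟨g, rfl⟩
    have := fix_zpow ha ((mem_normalizer_iff''.1 g.2 x).1 (mem_zpowers x))
    rwa [mul_smul, mul_smul, inv_smul_eq_iff] at this, fun hb =>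
    let ⟨g, hg, e⟩ := wt p K x Δ a b s inferInstance ha hb; ⟨⟨g, hg⟩, e⟩⟩
  obtain ⟨Q⟩ : Nonempty (Sylow q N) := inferInstance
  have ix : (stabilizer N a).index = q := (index_stabilizer N a).trans ((congrArg Set.ncard o).trans (fx_eq.symm.trans f))
  obtain ⟨y, hy, mv⟩ : ∃ y ∈ (Q : Subgroup N), y ∉ stabilizer N a :=
    SetLike.not_le_iff_exists.1 fun k => Q.not_dvd_index (ix.symm.dvd.trans (index_dvd_of_le k))
  obtain ⟨j, hj⟩ := Q.isPGroup' ⟨y, hy⟩
  have yj : y ^ q ^ j = 1 := by rw [← coe_mk (Q : Subgroup N) y hy, ← coe_pow, hj, coe_one]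
  have yk : (y : K) ^ q ^ j = 1 := by rw [← coe_pow, yj, coe_one]
  have c : Commute x y := by
    let φ := (zpowers x).normalizerMonoidHom
    have d := orderOf_dvd_natCard (φ y)
    rw [IsCyclic.card_mulAut, Nat.card_zpowers, s.ord, Nat.totient_prime s.hp] at d
    have : φ y = 1 := orderOf_eq_one_iff.1 (Nat.eq_one_of_dvd_coprimes (((Nat.Prime.coprime_iff_not_dvd hq).2 nd).pow_left j)
      (orderOf_dvd_of_pow_eq_one (by rw [← map_pow, yj, map_one])) d)
    have k : y ∈ φ.ker := this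
    rw [normalizerMonoidHom_ker] at k
    exact mem_centralizer_iff.1 (mem_subgroupOf.1 k) x (mem_zpowers x)
  have fx' := (ce K Δ x y p q j s.hp hq qp s.ord yk c).1 lq
  let ψ := toPermHom K Δ
  obtain ⟨k, -, hk⟩ := (Nat.dvd_prime_pow hq).1 (orderOf_dvd_of_pow_eq_one (x := ψ y) (n := q ^ j) (by
    rw [← map_pow, yk, map_one]))
  obtain _ | k := k
  · exact mv (congrArg (fun σ : Equiv.Perm Δ => σ a) (orderOf_eq_one_iff.1 hk))
  have ot : orderOf (ψ y ^ q ^ k) = q := by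
    rw [orderOf_pow_of_dvd (pow_pos hq.pos k).ne' (hk ▸ pow_dvd_pow q k.le_succ), hk, pow_succ,
      Nat.mul_div_cancel_left _ (pow_pos hq.pos k)]
  have cy : (ψ y ^ q ^ k).IsCycle := Equiv.Perm.isCycle_of_prime_order (ot.symm ▸ hq) (by
    have : ((ψ y ^ q ^ k).support : Set Δ) ⊆ fixedBy Δ x := fun v hv => by_contra fun m =>
      Equiv.Perm.mem_support.1 (Equiv.Perm.support_pow_le _ _ hv) (fx' v m)
    have := Set.ncard_le_ncard this
    rw [Set.ncard_coe_finset, ← fx_eq, f] at this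
    rw [ot]
    exact this.trans_lt (lt_two_mul_self hq.pos))
  have al := Cfsg.Agent.S0713.result ψ.range (IsPreprimitive.of_surjective (M := K) (φ := ψ.rangeRestrict)
    (f := ⟨id, fun _ _ => rfl⟩) Function.surjective_id) hq nm.1 nm.2.1 cy (cy.orderOf.symm.trans ot)
    (pow_mem (MonoidHom.mem_range.2 ⟨(y : K), rfl⟩) _)
  have : Nontrivial Δ := Fintype.one_lt_card_iff_nontrivial.1 nm.2.2.1
  refine s.sq (.trans ?_ ((card_dvd_of_le al).trans (card_range_dvd ψ)))
  refine Nat.Coprime.dvd_of_dvd_mul_left (m := 2) (((Nat.coprime_primes s.hp Nat.prime_two).2 nm.2.2.2.2).pow_left 2) ?_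
  rw [two_mul_nat_card_alternatingGroup, Nat.card_perm, Nat.card_eq_fintype_card, sq]
  exact ((Nat.mul_dvd_mul (Nat.dvd_factorial s.hp.pos le_rfl) (Nat.dvd_factorial s.hp.pos le_rfl)).trans
    (Nat.factorial_mul_factorial_dvd_factorial_add p p)).trans (Nat.factorial_dvd_factorial nm.2.2.2.1)

end H20.FP
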