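/-
S3159: the chunk FD (the frames in the `F₄` case).
-/
import Cfsg.Agent.H26.SX4
import Cfsg.Agent.H26.SX6

set_option autoImplicit false
set_option linter.unusedSectionVars false
set_option synthInstance.maxSize 4096
set_option synthInstance.maxHeartbeats 200000
open Cfsg Subgroup H19 H23.F4 H26.SX
namespace H20.SX.FD
universe u

def lg (v : t4) : Prop := wt v = 1 ∨ wt v = 4
instance lgDec (v : t4) : Decidable (lg v) := by unfold lg; infer_instance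
def w0 : t4 := (0, 1, 1, 0)
def l2 : List (t4 × t4) := [((0, 1, 0, 0), (0, 0, 1, 0)), ((1, 1, 0, 0), (1, 2, 0, 0)), ((1, 1, 0, 0), (1, 0, 1, 0)),
  ((1, 1, 0, 0), (1, 0, 2, 0)), ((0, 1, 1, 0), (0, 1, 2, 0)), ((1, 1, 1, 0), (1, 1, 2, 0)), ((1, 1, 1, 0), (1, 2, 1, 0)),
  ((1, 1, 1, 0), (1, 2, 2, 0))]
def l3 : List (t4 × t4) := [((0, 1, 0, 0), (0, 0, 0, 1)), ((1, 1, 0, 0), (1, 0, 0, 1)), ((1, 1, 0, 0), (1, 0, 0, 2)),
  ((0, 1, 1, 0), (0, 1, 0, 1)), ((0, 1, 1, 0), (0, 1, 0, 2)), ((0, 1, 1, 0), (0, 0, 1, 1)), ((0, 1, 1, 0), (0, 0, 1, 2))]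
def Pl (l : List (t4 × t4)) (p : M4) : Prop := ∀ e ∈ l, lg (ap4 p e.1) ↔ lg (ap4 p e.2)
instance plDec (l : List (t4 × t4)) (p : M4) : Decidable (Pl l p) := List.decidableBAll _ _
theorem l2_ok : ∀ e ∈ l2, e.1.2.2.2 = 0 ∧ e.2.2.2.2 = 0 ∧ ∃ u ∈ monoW, ap4 (mo4 u) e.1 = e.2 :=
  @of_decide_eq_true _ (List.decidableBAll _ _) (by decide +kernel)
theorem l3_ok : ∀ e ∈ l3, ∃ u ∈ monoW, ap4 (mo4 u) e.1 = e.2 :=
  @of_decide_eq_true _ (List.decidableBAll _ _) (by decide +kernel)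
/-- the only position of the chart of `w` -/
theorem key : ∀ x y : t4, Pl l2 (w0, x, y, 0) → (∀ v : t4, v.2.2.2 = 0 → ap4 (w0, x, y, 0) v = 0 → v = 0) →
    ∀ z, Pl l3 (w0, x, y, z) → wt (ap4 (w0, x, y, z) (0, 1, 0, 0)) = 2 ∧ lg (ap4 (w0, x, y, z) (0, 1, 1, 0)) ∧
      wt (ap4 (w0, x, y, z) (0, 1, 1, 1)) = 3 ∧ lg (ap4 (w0, x, y, z) (1, 1, 0, 0)) ∧ ap4 (mo4 [0, 1, 3]) x = x ∧
      ap4 (mo4 [0, 1, 3]) y = y ∧ ap4 (mo4 [0, 1, 3]) z = z := by decide +kernel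
theorem orb : ∀ v : t4, (wt v = 2 → ∃ u ∈ monoW, ∃ f ∈ [id4, nB], ∃ u' ∈ [[], [0]], ap4 (mo4 u) (ap4 f (ap4 (mo4 u') w0)) = v) ∧
    (wt v = 3 → ∃ u ∈ monoW, ∃ f ∈ [id4, nB], ∃ u' ∈ [[], [0]], ap4 (mo4 u) (ap4 f (ap4 (mo4 u') (0, 1, 1, 1))) = v) := by
  decide +kernel

variable {G : Type*} [Group G] [Finite G] {b r g : G} {φ χ : Sp →* G} {R M : Subgroup G} {m : M4}

theorem cjA (h : Ac b φ g m) (v : t4) : IsConj (ea b φ v) (ea b φ (ap4 m v)) := isConj_iff.2 ⟨g, h v⟩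
theorem cjw (W : Wc b φ R) (h : Wm b φ nB) {v v0 : t4}
    (e : ∃ u ∈ monoW, ∃ f ∈ [id4, nB], ∃ u' ∈ [[], [0]], ap4 (mo4 u) (ap4 f (ap4 (mo4 u') v0)) = v) :
    IsConj (ea b φ v0) (ea b φ v) := by
  obtain ⟨g, h⟩ := h
  obtain ⟨u, -, f, hf, u', -, rfl⟩ := e
  refine (cjA (W.amo u') _).trans (IsConj.trans ?_ (cjA (W.amo u) _))
  simp only [List.mem_cons, List.not_mem_nil, or_false] at hf
  rcases hf with rfl | rfl
  exacts [by rw [ap4_id], cjA h _]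

theorem eww : ea b φ w0 = φ ww := by rw [w0, ea1, show dA (1, 1, 0) = ww by decide +kernel]

/-- the chart of `w` -/
theorem chart (W : Wc b φ ⊥) (Z : Mz (φ ww) M) (e : Sp ≃* M) :
    ∃ χ x y z, Wc (φ ww) χ ⊥ ∧ ∀ v, ea (φ ww) χ v = ea b φ (ap4 (w0, x, y, z) v) := by
  have w3 : φ ww ^ 3 = 1 := eww (b := b) (φ := φ) ▸ W.e3 _
  have W0 : Wc (φ ww) (M.subtype.comp e.toMonoidHom) ⊥ := ⟨by rw [orderOf_injective φ W.inj]; exact ord3 (by decide +kernel) (by decide +kernel),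
    M.subtype_injective.comp e.injective, fun g => (mem_cent1.1 (Z.le (e g).2) : Commute _ _).symm,
    fun k hk => by rw [mem_bot.1 hk]; exact Commute.one_left _, fun k hk _ => by rw [mem_bot.1 hk]; exact Commute.one_left _,
    PiN.of_elt fun k hk => by rw [mem_bot.1 hk]; simpa [PiE] using PiN.one, fun x hx => by
      obtain ⟨i, hi⟩ := Z.sup x (mem_cent1.2 hx)
      refine ⟨-i, 1, e.symm ⟨_, hi⟩, one_mem _, ?_⟩
      have : φ ww ^ (-i).1 * φ ww ^ i.1 = 1 := by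
        rw [← pow_add, pow_eq_pow_mod _ w3, (by decide : ∀ i : Fin 3, ((-i).1 + i.1) % 3 = 0) i, pow_zero]
      simp [← mul_assoc, this]⟩
  obtain ⟨k, hk⟩ := W0.c81 W.cA.2.1 W.cA.2.2 W.cA.1 ((W.mem _).2 ⟨w0, eww.symm⟩)
  have W1 := W0.wcf k⁻¹
  have ex : ∀ t, ∃ x, cf (M.subtype.comp e.toMonoidHom) k⁻¹ (dA t) = ea b φ x := fun t => (W.mem _).1 (by
    have : (M.subtype.comp e.toMonoidHom) (dA t) ∈ cj ((M.subtype.comp e.toMonoidHom) k) (AA b φ) := by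
      rw [hk]; exact mem_sup_right (mem_map_of_mem _ ⟨t, rfl⟩)
    rw [cfa, map_mul, map_mul, inv_inv, map_inv]
    exact mem_cj.1 this)
  obtain ⟨x, hx⟩ := ex (1, 0, 0)
  obtain ⟨y, hy⟩ := ex (0, 1, 0)
  obtain ⟨z, hz⟩ := ex (0, 0, 1)
  rw [dA1] at hx; rw [dA2] at hy; rw [dA3] at hz
  refine ⟨_, x, y, z, W1, fun v => ?_⟩
  rw [ap4, W.add, W.add, W.add, W.nsm, W.nsm, W.nsm, W.nsm, eww, ea, dA, map_mul, map_mul, map_pow, map_pow, map_pow, hx, hy, hz,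
    mul_assoc, mul_assoc, mul_assoc]

theorem fd : FD.{u} := by
  intro _ G _ _ b r φ M F Z ⟨e⟩
  have W := F.toWc
  obtain ⟨χ, x, y, z, W', hp⟩ := chart W Z e
  have iv : ∀ u v, lg (ap4 (w0, x, y, z) v) ↔ lg (ap4 (w0, x, y, z) (ap4 (mo4 u) v)) := fun u v => by
    have := cjA (W'.amo u) v
    rw [lg, lg, ← F.lg, ← F.lg, Lg, Lg, ← hp, ← hp]
    exact ⟨fun h => h.trans this, fun h => h.trans this.symm⟩
  have cut : ∀ v : t4, v.2.2.2 = 0 → ap4 (w0, x, y, 0) v = ap4 (w0, x, y, z) v := fun v h => by simp [ap4, h]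
  obtain ⟨k1, k2, k3, k4, sx, sy, sz⟩ := key x y (fun e he => by
      obtain ⟨a, c, u, -, d⟩ := l2_ok e he
      rw [cut _ a, cut _ c, ← d]; exact iv u _)
    (fun v h0 h => W'.einj (by rw [hp, ← cut v h0, h, W.zero, W'.zero])) z fun e he => by
      obtain ⟨u, -, d⟩ := l3_ok e he
      rw [← d]; exact iv u _
  have c2 : ∀ v, wt v = 2 → IsConj (φ ww) (ea b φ v) := fun v h => eww (b := b) (φ := φ) ▸ cjw W F.nb ((orb v).1 h)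
  have t1 : IsConj (φ ww) (ea (φ ww) χ (0, 1, 0, 0)) := hp _ ▸ c2 _ k1
  have n3 : ¬ IsConj (φ ww) (ea (φ ww) χ (0, 1, 1, 1)) := fun l => by
    obtain ⟨m, k, e⟩ := (W'.fus _).1 l
    exact (tri (Wm (φ ww) χ) (fun _ _ ⟨_, a⟩ ⟨_, c⟩ => ⟨_, W'.amul a c⟩)
      (fun _ ⟨_, a⟩ => let ⟨n, k, e⟩ := W'.ainv a; ⟨n, ⟨_, k⟩, e⟩) (fun w => ⟨_, W'.amo w⟩) (fun _ ⟨_, a⟩ => W'.stab a)
      (let ⟨m, k, e⟩ := (W'.fus _).1 t1; ⟨m, k, e ▸ by decide⟩)).2.1 m k e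
  have c3 : ∀ v, wt v = 3 → ea b φ v ∉ {x | IsConj b x ∨ IsConj (φ ww) x} := by
    rintro v h (l | l)
    · have := (F.lg v).1 l; omega
    · exact n3 (hp _ ▸ l.trans ((cjw W F.nb ((orb v).2 h)).symm.trans (cjw W F.nb ((orb _).2 k3))))
  have a := W.amo [0, 1, 3]
  have fx : ∀ {t v}, ap4 (w0, x, y, z) (0, t) = v → ap4 (mo4 [0, 1, 3]) v = v → Commute (φ ([0, 1, 3].map mg).prod) (χ (dA t)) :=
    fun {t v} e1 e2 => by
      have := a v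
      rw [e2, ← e1, ← hp, ea1] at this
      exact mul_inv_eq_iff_eq_mul.1 this
  have rr : φ ([0, 1, 3].map mg).prod * φ ([0, 1, 3].map mg).prod = 1 := map_sq (by decide +kernel)
  have rb : φ ([0, 1, 3].map mg).prod * φ ww * (φ ([0, 1, 3].map mg).prod)⁻¹ = (φ ww)⁻¹ := by
    rw [← map_inv, ← map_inv, ← map_mul, ← map_mul]; exact congrArg φ (by decide +kernel)
  have F' : Fc (φ ww) (φ ([0, 1, 3].map mg).prod) χ ⊥ := ⟨W', rr, rb,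
    W'.cenL _ rr (.inr rb) (dA1 ▸ fx (ap4_1 _) sx) (dA2 ▸ fx (ap4_2 _) sy) (dA3 ▸ fx (ap4_3 _) sz),
    fun k hk => by rw [mem_bot.1 hk]; exact Commute.one_right _⟩
  have cj : ∀ s ∈ {x | IsConj b x ∨ IsConj (φ ww) x}, ∀ g : G, g * s * g⁻¹ ∈ {x | IsConj b x ∨ IsConj (φ ww) x} :=
    fun s hs g => hs.imp (·.trans (isConj_iff.2 ⟨g, rfl⟩)) (·.trans (isConj_iff.2 ⟨g, rfl⟩))
  have e1 : ∀ (c : G) (ψ : Sp →* G), ea c ψ (0, 1, 0, 0) = ψ d1 := fun c ψ => by rw [ea1, dA1]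
  have e2 : ∀ (c : G) (ψ : Sp →* G), ea c ψ (0, 1, 1, 0) = ψ (d1 * d2) := fun c ψ => eww
  have e3 : ∀ (c : G) (ψ : Sp →* G), ea c ψ (0, 1, 1, 1) = ψ (d1 * d2 * d3) := fun c ψ => by
    rw [ea1, show dA (1, 1, 1) = d1 * d2 * d3 by decide +kernel]
  have e4 : ∀ (c : G) (ψ : Sp →* G), ea c ψ (1, 1, 0, 0) = c * ψ d1 := fun c ψ => by simp [ea, dA1]
  refine ⟨cj, ⟨b, .inl (IsConj.refl b)⟩, ?_⟩
  rintro θ (h | h) <;> obtain ⟨k, rfl⟩ := isConj_iff.1 h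
  · exact F.toFc.fr cj (.inl (IsConj.refl b)) (.inl (e1 b φ ▸ (F.lg _).2 (by decide))) (.inr (IsConj.refl _))
      (e3 b φ ▸ c3 _ (by decide)) (.inr (e4 b φ ▸ c2 _ (by decide))) k
  · exact F'.fr cj (.inr (IsConj.refl _)) (.inr (e1 _ χ ▸ t1)) (.inl (by rw [← e2 (φ ww), hp]; exact (F.lg _).2 k2))
      (by rw [← e3 (φ ww), hp]; exact c3 _ k3) (.inl (by rw [← e4, hp]; exact (F.lg _).2 k4)) k

end H20.SX.FD
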