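import Cfsg.Agent.H4.US0

/-! S5810 part 4: arithmetic of the torus (chunk AR). -/

set_option autoImplicit false

namespace H20.US
open H4.US

theorem ar0 (q : ℕ) (h : 2 ≤ q) : ∃ t, (gg q = 1 ∨ gg q = 7) ∧ (7 * t + 1) * gg q * (q + 1) = q ^ 7 + 1 ∧
    (7 * t + 1).Coprime (q + 1) ∧ 6 * gg q ≤ t := by
  by_cases h7 : 7 ∣ q + 1
  · have g : gg q = 7 := Nat.gcd_eq_left h7
    obtain ⟨k, hk⟩ := h7
    obtain ⟨j, rfl⟩ : ∃ j, k = j + 1 := ⟨k - 1, by omega⟩
    obtain rfl : q = 7 * j + 6 := by omega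
    refine ⟨(j + 1) * (816 + 5033 * j + 12446 * j ^ 2 + 15435 * j ^ 3 + 9604 * j ^ 4 + 2401 * j ^ 5), .inr g,
      by rw [g]; ring, ?_, by rw [g]; nlinarith [Nat.zero_le (j ^ 2), Nat.zero_le (j ^ 3), Nat.zero_le (j ^ 4), Nat.zero_le (j ^ 5)]⟩
    rw [← mul_assoc, ← hk, Nat.coprime_mul_left_add_left]
    exact Nat.coprime_one_left _
  · have g : gg q = 1 := (Nat.Prime.coprime_iff_not_dvd (by norm_num)).2 h7
    obtain ⟨a, rfl⟩ : ∃ a, q = a + 2 := ⟨q - 2, by omega⟩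
    obtain ⟨d, hd, h1, h2⟩ : ∃ d, d * (a + 2 + 1) = (a + 2) ^ 7 + 1 ∧ 43 ≤ d ∧ ∃ e, d + (a + 2 + 1) * e = 7 + (a + 2 + 1) * ((a + 3) ^ 5
        + 21 * (a + 3) ^ 3 + 35 * (a + 3)) :=
      ⟨(a + 1) * ((a + 2) ^ 5 + (a + 2) ^ 3 + (a + 2)) + 1, by ring, by
        nlinarith [Nat.pow_le_pow_left (show 2 ≤ a + 2 by omega) 5, Nat.pow_le_pow_left (show 2 ≤ a + 2 by omega) 3],
        7 * (a + 3) ^ 4 + 35 * (a + 3) ^ 2 + 21, by ring⟩
    have h3 : d % 7 = 1 := by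
      have : Fact (Nat.Prime 7) := ⟨by norm_num⟩
      have h4 := congrArg (Nat.cast : ℕ → ZMod 7) hd
      rw [Nat.cast_mul, Nat.cast_add (_ ^ 7), Nat.cast_pow, ZMod.pow_card, ← Nat.cast_add,
        mul_eq_right₀ (mt (ZMod.natCast_eq_zero_iff _ _).1 h7)] at h4
      exact (ZMod.natCast_eq_natCast_iff' d 1 7).1 (by simpa using h4)
    obtain ⟨e, he⟩ := h2
    refine ⟨d / 7, .inl g, by rw [g, mul_one, ← hd]; congr 1; omega, ?_, by omega⟩
    rw [show 7 * (d / 7) + 1 = d by omega, ← Nat.coprime_add_mul_left_left d _ e, he, Nat.coprime_add_mul_left_left]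
    exact g

theorem ar : AR := fun q h => by
  obtain ⟨t, h1, h2, h3, h4⟩ := ar0 q h
  have g0 : 0 < gg q := by omega
  have e1 : mm q = (7 * t + 1) * (q + 1) := by
    rw [mm, ← h2, mul_right_comm, Nat.mul_div_cancel _ g0]
  have e2 : cc q = 7 * t + 1 := by rw [cc, e1, Nat.mul_div_cancel _ (by omega)]
  have dv : 7 * t + 1 ∣ q ^ 7 + 1 := ⟨_, by rw [← h2, mul_assoc]⟩
  have od : Odd (7 * t + 1) := by
    rcases Nat.even_or_odd q with e | e
    · exact (Even.add_one (e.pow_of_ne_zero (by norm_num))).of_dvd_nat dv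
    · exact (h3.coprime_dvd_right (Odd.add_one e).two_dvd).odd_of_right
  have key : ∀ r, r.Prime → r ∣ 7 * t + 1 → orderOf ((q : ZMod r) ^ 2) = 7 := fun r hr hd => by
    have := Fact.mk hr
    have : Fact (Nat.Prime 7) := ⟨by norm_num⟩
    have a : (q : ZMod r) ^ 7 = -1 := eq_neg_of_add_eq_zero_left (by
      simpa using (ZMod.natCast_eq_zero_iff _ _).2 (hd.trans dv))
    refine orderOf_eq_prime (by rw [← pow_mul, mul_comm, pow_mul, a]; simp) fun b => ?_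
    have c : (q : ZMod r) = -1 := by rw [← a, show 7 = 2 * 3 + 1 by rfl, pow_succ, pow_mul, b]; simp
    exact hr.one_lt.ne' (Nat.eq_one_of_dvd_coprimes h3 hd ((ZMod.natCast_eq_zero_iff _ _).1 (by simp [c])))
  refine ⟨by rw [e1, ← h2]; ring, by rw [e1, e2], e2 ▸ h3, ?_, e2 ▸ od, h1, ⟨t, e2, h4⟩, fun i i0 i7 => ?_, fun r hr hd => ?_⟩
  · rw [e2]
    exact ((Nat.coprime_add_self_left.2 (Nat.coprime_one_left (q ^ 7))).coprime_dvd_left (by rwa [add_comm 1])).coprime_dvd_right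
      (dvd_pow_self q (by norm_num))
  · rw [e2]
    refine Nat.Coprime.symm (Nat.coprime_of_dvd fun r hr a b => ?_)
    have := key r hr b
    have c : ((q : ZMod r) ^ 2) ^ i = 1 := by
      have := (ZMod.natCast_eq_zero_iff _ _).2 a
      rw [Nat.cast_pred (by positivity), sub_eq_zero] at this
      simpa using this
    exact absurd (Nat.le_of_dvd i0 (this ▸ orderOf_dvd_of_pow_eq_one c)) (by omega)
  · rw [e2] at hd
    have := Fact.mk hr
    have a := key r hr hd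
    have b : (q : ZMod r) ^ 2 ≠ 0 := fun e => by simp [e] at a
    have c := a ▸ ZMod.orderOf_dvd_card_sub_one b
    obtain ⟨m, hm⟩ := od.of_dvd_nat hd
    have := hr.two_le
    have : r ≠ 15 := by rintro rfl; norm_num at hr
    omega

end H20.US
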