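import Cfsg.Agent.H4.US0
import Cfsg.Agent.H5.Galois

/-! S5810 part 4: Heisenberg relations and the Weil representation (chunks HW, WR). -/

set_option autoImplicit false
set_option linter.unusedSectionVars false
set_option linter.style.haveILetI false

namespace H20.US
open H4.US Module Finset Matrix

universe u

section
variable {V : Type u} [AddCommGroup V] [Fintype V] {b : V → V → ℂ} (h1 : ∀ x y z, b (x + y) z = b x z * b y z)
  (h2 : ∀ x y z, b x (y + z) = b x y * b x z) (h0 : ∀ x y, b x y ≠ 0)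
include h1 h0 in
theorem b0l (y : V) : b 0 y = 1 := mul_left_cancel₀ (h0 0 y) (by rw [← h1, add_zero, mul_one])
include h2 h0 in
theorem b0r (x : V) : b x 0 = 1 := mul_left_cancel₀ (h0 x 0) (by rw [← h2, add_zero, mul_one])
include h1 h0 in
theorem bnl (x y : V) : b (-x) y = (b x y)⁻¹ := eq_inv_of_mul_eq_one_left (by rw [← h1, neg_add_cancel, b0l h1 h0])
include h2 h0 in
theorem bnr (x y : V) : b x (-y) = (b x y)⁻¹ := eq_inv_of_mul_eq_one_left (by rw [← h2, neg_add_cancel, b0r h2 h0])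
end

theorem hw : HW.{u} := fun V _ _ b h1 h2 h0 h3 => by
  classical
  let L : V → Matrix V V ℂ := fun x => of fun w u => if w = x + u then b x u else 0
  have m : ∀ x y, L x * L y = b x y • L (x + y) := fun x y => by
    ext w u
    simp only [L, mul_apply, of_apply, mul_ite, mul_zero, sum_ite_eq', mem_univ, if_true, Matrix.smul_apply, smul_eq_mul, h1, h2,
      add_assoc, ite_mul, zero_mul, mul_assoc]
  have l0 : L 0 = 1 := by ext w u; simp [L, one_apply, b0l h1 h0]
  let A : Subalgebra ℂ (Matrix V V ℂ) := (Submodule.span ℂ (Set.range L)).toSubalgebra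
    (l0 ▸ Submodule.subset_span ⟨0, rfl⟩) fun x y hx hy => by
      have := Submodule.mul_mem_mul hx hy
      rw [Submodule.span_mul_span] at this
      refine Submodule.span_le.2 ?_ this
      rintro _ ⟨_, ⟨x, rfl⟩, _, ⟨y, rfl⟩, rfl⟩
      simp only [m]
      exact Submodule.smul_mem _ _ (Submodule.subset_span ⟨_, rfl⟩)
  let l : V → A := fun x => ⟨L x, Submodule.subset_span ⟨x, rfl⟩⟩
  have ml : ∀ x y, l x * l y = b x y • l (x + y) := fun x y => Subtype.ext (m x y)
  have l1 : l 0 = 1 := Subtype.ext l0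
  have sp : ∀ M : A, ∃ a : V → ℂ, M = ∑ x, a x • l x := fun M =>
    let ⟨a, ha⟩ := (Submodule.mem_span_range_iff_exists_fun ℂ).1 M.2; ⟨a, Subtype.ext (by simp [← ha, l])⟩
  have li : LinearIndependent ℂ L := Fintype.linearIndependent_iff.2 fun a ha x => by
    simpa [L, Matrix.sum_apply, b0r h2 h0] using congrFun (congrFun ha x) 0
  have cj : ∀ x y, l y * l x * (b y y • l (-y)) = (b y x / b x y) • l x := fun x y => by
    rw [ml, mul_smul_comm, smul_mul_assoc, ml, smul_smul, smul_smul, h1, bnr h2 h0, bnr h2 h0, add_neg_cancel_comm]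
    congr 1; field_simp [h0]
  have s0 : ∀ x, x ≠ 0 → ∑ y, b y x / b x y = 0 := fun x x0 => by
    obtain ⟨z, hz⟩ := h3 x x0
    have := Equiv.sum_comp (Equiv.addLeft z) fun y => b y x / b x y
    simp only [Equiv.coe_addLeft, h1, h2, mul_div_mul_comm, ← mul_sum] at this
    exact by_contra fun n => hz (by rw [mul_eq_right₀ n, div_eq_one_iff_eq (h0 _ _)] at this; exact this.symm)
  haveI : IsSimpleRing A := .of_eq_bot_or_eq_top fun I => or_iff_not_imp_left.2 fun n => by
    obtain ⟨M, hM, M0 : M ≠ 0⟩ := SetLike.exists_of_lt (bot_lt_iff_ne_bot.2 n : ⊥ < I)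
    obtain ⟨a, rfl⟩ := sp M
    obtain ⟨x, hx⟩ : ∃ x, a x ≠ 0 := by by_contra! h; exact M0 (by simp [h])
    have k : ∑ y, l y * ((∑ z, a z • l z) * l (-x)) * (b y y • l (-y)) = (a x * b x (-x) * Fintype.card V) • 1 := by
      have : ∀ y z (c : ℂ), l y * c • l z * (b y y • l (-y)) = (c * (b y z / b z y)) • l z := fun y z c => by
        rw [mul_smul_comm c, smul_mul_assoc, cj, smul_smul]
      simp only [sum_mul, mul_sum, smul_mul_assoc (a _), ml, smul_smul, this]
      rw [sum_comm, sum_eq_single x (fun z _ hz => by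
        rw [← sum_smul, ← mul_sum, s0 _ (by rwa [← sub_eq_add_neg, sub_ne_zero])]; simp) (by simp)]
      simp [b0l h1 h0, b0r h2 h0, l1, mul_smul, Nat.cast_smul_eq_nsmul]
    have := I.mul_mem_left ((a x * b x (-x) * Fintype.card V)⁻¹ • 1) _ (k ▸ sum_mem fun y _ =>
      I.mul_mem_right _ _ (I.mul_mem_left (l y) _ (I.mul_mem_right _ (l (-x)) hM)))
    rwa [smul_mul_smul_comm, inv_mul_cancel₀ (by simp [hx, h0]), one_mul, one_smul, I.one_mem_iff] at this
  obtain ⟨n, -, ⟨φ⟩⟩ := IsSimpleRing.exists_algEquiv_matrix_of_isAlgClosed ℂ A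
  refine ⟨n, fun x => φ (l x), ?_, by simp only [l1, map_one], fun x y => by rw [← map_mul, ml, map_smul], fun x x0 => ?_, fun M => ?_⟩
  · rw [← finrank_span_eq_card li, show finrank ℂ (Submodule.span ℂ (Set.range L)) = finrank ℂ A from rfl,
      φ.toLinearEquiv.finrank_eq, finrank_matrix]; simp [sq]
  · obtain ⟨y, hy⟩ := h3 x x0
    have := congrArg (fun M => (φ M).trace) (cj x y)
    simp only [map_mul] at this
    rw [trace_mul_cycle, ← map_mul, smul_mul_assoc, ml, neg_add_cancel, l1, smul_smul, bnl h1 h0, mul_inv_cancel₀ (h0 _ _),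
      one_smul, map_one, one_mul, map_smul, trace_smul, smul_eq_mul] at this
    exact by_contra fun n => hy (by rw [right_eq_mul₀ n, div_eq_one_iff_eq (h0 _ _)] at this; exact this.symm)
  · obtain ⟨a, ha⟩ := sp (φ.symm M)
    exact ⟨a, by simpa using congrArg φ ha⟩

theorem wr : WR.{u} := fun V _ _ b J _ _ _ h1 h2 h0 h3 h4 => by
  classical
  obtain ⟨n, E, hn, E0, m, tr, sp⟩ := hw V b h1 h2 h0 h3
  have n0 : n ≠ 0 := by rintro rfl; exact Fintype.card_ne_zero (hn.symm.trans (by simp))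
  have n0' : (n : ℂ) ≠ 0 := Nat.cast_ne_zero.2 n0
  obtain ⟨E', hE'⟩ : ∃ E' : V → _, ∀ w, E' w = b w w • E (-w) := ⟨_, fun _ => rfl⟩
  have e1 : ∀ w, E w * E' w = 1 := fun w => by
    rw [hE', mul_smul_comm, m, smul_smul, bnr h2 h0, mul_inv_cancel₀ (h0 _ _), add_neg_cancel, one_smul, E0]
  have e2 : ∀ w, E' w * E w = 1 := fun w => mul_eq_one_comm.1 (e1 w)
  have trE : ∀ x, (E x).trace = if x = 0 then (n : ℂ) else 0 := fun x => by
    split_ifs with h
    · simp [h, E0]
    · exact tr x h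
  have sc : ∀ M : Matrix (Fin n) (Fin n) ℂ, (∀ v, M * E v = E v * M) → ∃ ζ : ℂ, M = ζ • 1 := fun M h => by
    obtain ⟨ζ, e⟩ := mem_range_scalar_iff_commute_single'.2 fun i j => show single i j 1 * M = M * single i j 1 by
      obtain ⟨a, ha⟩ := sp (single i j 1)
      simp [ha, sum_mul, mul_sum, h]
    exact ⟨ζ, by rw [← e, scalar_apply, smul_one_eq_diagonal]⟩
  let a := fun g : J => ∑ w, E (g • w) * E' w
  have ha : ∀ g v, a g * E v = E (g • v) * a g := fun g v => by
    simp only [a, sum_mul, mul_sum]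
    refine (Fintype.sum_equiv (Equiv.addLeft v) _ _ fun w => ?_).symm
    simp only [Equiv.coe_addLeft]
    rw [← mul_one (_ * E v), ← e1 w, ← mul_assoc, ← mul_assoc, mul_assoc _ (E v), m, m, mul_smul_comm, mul_assoc (E _),
      e2, mul_one, smul_add, h4]
  have ta : ∀ g, (a g).trace = n * #{w : V | g • w = w} := fun g => by
    simp only [a, hE', trace_sum, mul_smul_comm, m, trace_smul, trE, smul_eq_mul, add_neg_eq_zero, mul_ite, mul_zero]
    rw [← sum_filter, sum_congr rfl (g := fun _ => (n : ℂ)) fun w hw => by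
      rw [(mem_filter.1 hw).2, bnr h2 h0, mul_inv_cancel_left₀ (h0 _ _)]]
    simp [mul_comm]
  have da : ∀ g, (a g).det ≠ 0 := fun g d => by
    obtain ⟨u, u0, hu⟩ := exists_mulVec_eq_zero_iff.2 d
    obtain ⟨i, hi⟩ := Function.ne_iff.1 u0
    have k : ∀ A, (a g * A) *ᵥ u = 0 := fun A => by
      obtain ⟨c, rfl⟩ := sp A
      simp [mul_sum, sum_mulVec, ha, ← mulVec_mulVec, hu, smul_mulVec]
    have : a g = 0 := by
      ext j l
      simpa [mulVec, dotProduct, mul_apply, single_apply, ite_and, show u i ≠ 0 from hi] using congrFun (k (single l i 1)) j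
    have := this ▸ ta g
    simp only [trace_zero, zero_eq_mul, n0', Nat.cast_eq_zero, card_eq_zero, false_or] at this
    exact (this ▸ notMem_empty 0) (by simp)
  let Γ : Subgroup (J × GL (Fin n) ℂ) :=
    { carrier := {x | x.2.val.det = 1 ∧ ∀ v, x.2.val * E v = E (x.1 • v) * x.2.val}
      one_mem' := by simp
      mul_mem' := fun {x y} ⟨a1, a2⟩ ⟨b1, b2⟩ => ⟨by simp [a1, b1], fun v => by
        simp only [Prod.snd_mul, Units.val_mul, Prod.fst_mul, mul_smul]
        rw [mul_assoc, b2, ← mul_assoc, a2, mul_assoc]⟩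
      inv_mem' := fun {x} ⟨a1, a2⟩ => ⟨by simp [a1], fun v => by
        rw [Prod.snd_inv, Prod.fst_inv, Units.inv_mul_eq_iff_eq_mul, ← mul_assoc, a2, smul_inv_smul,
          Units.mul_inv_cancel_right]⟩ }
  let π : Γ →* J := (MonoidHom.fst _ _).comp Γ.subtype
  let ρ : Γ →* Matrix (Fin n) (Fin n) ℂ := (Units.coeHom _).comp ((MonoidHom.snd _ _).comp Γ.subtype)
  have hρ : ∀ x v, ρ x * E v = E (π x • v) * ρ x := fun x => x.2.2
  have ext : ∀ {x y}, π x = π y → ρ x = ρ y → x = y := fun p r => Subtype.ext (Prod.ext p (Units.ext r))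
  have ker : ∀ z, π z = 1 → ∃ ζ : ℂ, ζ ^ n = 1 ∧ ρ z = ζ • 1 := fun z hz => by
    obtain ⟨ζ, e⟩ := sc (ρ z) fun v => by rw [hρ, hz, one_smul]
    exact ⟨ζ, by simpa using (congrArg det e).symm.trans z.2.1, e⟩
  haveI : Finite π.ker := by
    haveI : Finite {ζ : ℂ // ζ ^ n = 1} := ((Polynomial.nthRoots n (1 : ℂ)).finite_toSet.subset fun ζ h =>
      (Polynomial.mem_nthRoots (Nat.pos_of_ne_zero n0)).2 h : {ζ : ℂ | ζ ^ n = 1}.Finite)
    choose f f1 f2 using fun z : π.ker => ker z z.2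
    exact Finite.of_injective (fun z => (⟨f z, f1 z⟩ : {ζ : ℂ // ζ ^ n = 1})) fun x y e => Subtype.ext
      (ext (x.2.trans y.2.symm) (by rw [f2, f2, show f x = f y from congrArg Subtype.val e]))
  haveI : Finite Γ := (MonoidHom.finite_iff_finite_ker_range π).2 ⟨inferInstance, inferInstance⟩
  have mu : ∀ x, ∃ μ : ℂ, a (π x) = μ • ρ x := fun x => by
    obtain ⟨μ, e⟩ := sc (ρ x⁻¹ * a (π x)) fun v => by rw [mul_assoc, ha, ← mul_assoc, hρ, map_inv, inv_smul_smul, mul_assoc]
    exact ⟨μ, by rw [← mul_one (ρ x), ← mul_smul_comm, ← e, ← mul_assoc, ← map_mul, mul_inv_cancel, map_one, one_mul]⟩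
  have tf : ∀ g : J, (∀ v : V, g • v = v → v = 0) → (a g).trace = n := fun g h => by
    rw [ta, show ({w | g • w = w} : Finset V) = {0} from Finset.ext fun w => by simpa using ⟨h w, fun e => by simp [e]⟩]
    simp
  refine ⟨n, Γ, inferInstance, Fintype.ofFinite _, π, ρ, hn, fun g => ?_, fun z hz => ?_, fun x hx => ?_, fun Φ hΦ =>
    ⟨∑ v, Φ v • E v, fun x => ?_, fun x hx => ?_⟩⟩
  · obtain ⟨c, hc⟩ := IsAlgClosed.exists_pow_nat_eq (a g).det⁻¹ (Nat.pos_of_ne_zero n0)
    have d : (c • a g).det = 1 := by rw [det_smul, Fintype.card_fin, hc, inv_mul_cancel₀ (da g)]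
    exact ⟨⟨(g, GeneralLinearGroup.mkOfDetNeZero _ (d.trans_ne one_ne_zero)), d, fun v =>
      show c • a g * _ = _ * c • a g by rw [smul_mul_assoc, ha, mul_smul_comm]⟩, rfl⟩
  · obtain ⟨ζ, h, e⟩ := ker z hz
    exact ⟨ext (by simp [hz]) (by rw [map_pow, e, smul_pow, h]; simp), Subgroup.mem_center_iff.2 fun g =>
      ext (by simp [hz]) (by simp [e]), ⟨ζ, e⟩, fun k => ext (by simp [hz]) (by simp [k])⟩
  · obtain ⟨μ, e⟩ := mu x
    obtain ⟨μ', e'⟩ := mu x⁻¹
    have t1 := tf _ hx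
    have t2 := tf (π x⁻¹) fun v h => hx v (by rw [map_inv, inv_smul_eq_iff] at h; exact h.symm)
    have t3 : (a (π x) * a (π x⁻¹)).trace = n ^ 2 * n := by
      conv_lhs => rw [show a (π x⁻¹) = ∑ w, E (π x⁻¹ • w) * E' w from rfl, mul_sum, trace_sum]
      rw [sum_congr rfl (g := fun _ => (n : ℂ)) fun w _ => by
        rw [← mul_assoc, ha, map_inv, smul_inv_smul, trace_mul_cycle, e2, one_mul, t1]]
      simp [← hn]
    rw [e, e', smul_mul_smul_comm, ← map_mul, mul_inv_cancel, map_one, trace_smul, trace_one, Fintype.card_fin,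
      smul_eq_mul, mul_left_inj' n0'] at t3
    rw [e, trace_smul, smul_eq_mul] at t1
    rw [e', trace_smul, smul_eq_mul, H5.Cfsg.IsCharacter.apply_inv (H5.isCharacter_matrix_trace ρ)] at t2
    have : (ρ x).trace * starRingEnd ℂ (ρ x).trace = 1 := mul_left_cancel₀ (pow_ne_zero 2 n0') (by
      rw [mul_one]; nth_rw 1 [← t3]; linear_combination (μ' * starRingEnd ℂ (ρ x).trace) * t1 + n * t2)
    rw [Complex.mul_conj, Complex.normSq_eq_norm_sq] at this
    exact (pow_eq_one_iff_of_nonneg (norm_nonneg _) two_ne_zero).1 (by exact_mod_cast this)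
  · simp only [sum_mul, mul_sum, smul_mul_assoc, mul_smul_comm, hρ]
    exact (Fintype.sum_equiv (MulAction.toPerm (π x)) _ _ fun v => by simp [hΦ]).symm
  · obtain ⟨μ, e⟩ := mu x
    have t1 := tf _ hx
    rw [e, trace_smul, smul_eq_mul] at t1
    refine mul_left_cancel₀ (left_ne_zero_of_mul (t1.trans_ne n0')) ?_
    rw [← mul_assoc, t1, ← smul_eq_mul, ← trace_smul, ← mul_smul_comm, ← e, mul_sum, mul_sum, trace_sum]
    refine sum_congr rfl fun w _ => ?_
    simp only [hE', sum_mul, trace_sum, mul_smul_comm, smul_mul_assoc, m, trace_smul, trE, smul_eq_mul, mul_ite, mul_zero,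
      add_eq_zero_iff_eq_neg, sum_ite_eq', mem_univ, if_true]
    rw [neg_add_rev, neg_neg, ← sub_eq_add_neg, h2, sub_eq_add_neg, h1 _ _ (-w), bnl h1 h0, bnr h2 h0 w]
    field_simp [h0]

end H20.US
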